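import Cfsg.Agent.Lib.BG.Basic
import Cfsg.Agent.Lib.PGroup.Basic

/-! Breadth and the derived subgroup of a `p`-group (Vaughan-Lee; Skutin's argument). -/

namespace Cfsg.Lib.FGS.Br

open Subgroup Cfsg.Lib Cfsg.Lib.BG
open scoped commutatorElement Pointwise


variable {G : Type*} [Group G] [Finite G] {p : ℕ}

theorem card_der_le_top (P K : Subgroup G) [P.Normal] (g : G) (h : P ⊔ zpowers g = ⊤)
    (hK : ∀ u ∈ P, u ∈ K → ⁅u, g⁆ ∈ ⁅P, P⁆) :
    Nat.card (_root_.commutator G) ≤ Nat.card ↥(⁅P, P⁆) * K.relIndex P := by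
  set D : Subgroup G := ⁅P, P⁆ with hD
  let π := QuotientGroup.mk' D
  have hc : ∀ a ∈ P, ∀ b ∈ P, π a * π b = π b * π a := by
    intro a ha b hb
    rw [← commutatorElement_eq_one_iff_mul_comm, ← map_commutatorElement]
    exact (QuotientGroup.eq_one_iff _).2 (commutator_mem_commutator ha hb)
  have hP : ∀ u ∈ P, ⁅u, g⁆ ∈ P := by
    intro u hu
    have := ‹P.Normal›.conj_mem _ (P.inv_mem hu) g
    have e : ⁅u, g⁆ = u * (g * u⁻¹ * g⁻¹) := by simp only [commutatorElement_def]; group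
    rw [e]; exact P.mul_mem hu this
  let φ : P →* G ⧸ D := MonoidHom.mk' (fun u => π ⁅(u : G), g⁆) (by
    intro u v
    have e : ⁅((u * v : P) : G), g⁆ = u * ⁅(v : G), g⁆ * (u : G)⁻¹ * ⁅(u : G), g⁆ := by
      simp only [commutatorElement_def, coe_mul]; group
    simp only [e, map_mul]
    rw [hc _ u.2 _ (hP _ v.2), mul_assoc (π ⁅(v : G), g⁆), ← map_mul π (u : G), mul_inv_cancel,
      map_one, mul_one, hc _ (hP _ v.2) _ (hP _ u.2)])
  let W : Subgroup G := φ.range.comap π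
  have hWP : W ≤ P := by
    rintro w ⟨u, hu⟩
    have h1 : π ⁅(u : G), g⁆ = π w := hu
    have h2 : (⁅(u : G), g⁆)⁻¹ * w ∈ D := QuotientGroup.eq.1 h1
    have h3 := P.mul_mem (hP _ u.2) (der_le P h2)
    rwa [mul_inv_cancel_left] at h3
  have hDW : D ≤ W := by
    intro d hd
    refine ⟨1, ?_⟩
    rw [map_one]; exact ((QuotientGroup.eq_one_iff _).2 hd).symm
  have hgW : ∀ u ∈ P, ⁅u, g⁆ ∈ W := fun u hu => ⟨⟨u, hu⟩, rfl⟩
  have hN : W.Normal := by
    rw [← normalizer_eq_top_iff, eq_top_iff, ← h]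
    refine sup_le (norm_of_comm_le_of_le (K := P) hDW hWP) ?_
    rw [zpowers_le]
    refine (le_norm_iff (A := zpowers g)).2 ?_ (mem_zpowers g)
    refine le_norm_iff.1 (norm_of_comm_le (A := W) (B := zpowers g) ?_)
    rw [comm_le_iff]
    intro w hw b hb
    -- `g` normalises `W`
    have hg1 : ∀ w ∈ W, g * w * g⁻¹ ∈ W := by
      intro w hw
      have e : g * w * g⁻¹ = (⁅w, g⁆)⁻¹ * w := by simp only [commutatorElement_def]; group
      rw [e]; exact W.mul_mem (W.inv_mem (hgW _ (hWP hw))) hw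
    have hg2 : g ∈ 𝐍(W) := Subgroup.mem_normalizer_fintype hg1
    have hb2 : b ∈ 𝐍(W) := (zpowers_le.2 hg2) hb
    have := W.mul_mem hw (conj_mem_of_norm hb2 (W.inv_mem hw))
    simpa [mul_assoc] using this
  have hle : _root_.commutator G ≤ W := by
    let ρ := QuotientGroup.mk' W
    have h1 : ∀ u ∈ P, ∀ x : G, ρ u * ρ x = ρ x * ρ u := by
      intro u hu x
      have hx : x ∈ P ⊔ zpowers g := h ▸ mem_top x
      have : P ⊔ zpowers g ≤ (𝐂[ρ u]).comap ρ := by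
        refine sup_le ?_ (zpowers_le.2 ?_)
        · intro v hv
          rw [mem_comap, mem_cent1, ← commutatorElement_eq_one_iff_mul_comm,
            ← map_commutatorElement]
          exact (QuotientGroup.eq_one_iff _).2 (hDW (commutator_mem_commutator hv hu))
        · rw [mem_comap]
          refine mem_cent1_symm ?_
          rw [mem_cent1, ← commutatorElement_eq_one_iff_mul_comm, ← map_commutatorElement]
          exact (QuotientGroup.eq_one_iff _).2 (hgW _ hu)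
      exact (mem_cent1.1 (this hx)).symm
    have h2 : ∀ x : G, ρ g * ρ x = ρ x * ρ g := by
      intro x
      have hx : x ∈ P ⊔ zpowers g := h ▸ mem_top x
      have : P ⊔ zpowers g ≤ (𝐂[ρ g]).comap ρ :=
        sup_le (fun v hv => mem_cent1.2 (h1 v hv g)) (zpowers_le.2 (self_mem_cent1 _))
      exact (mem_cent1.1 (this hx)).symm
    rw [_root_.commutator_def, commutator_le]
    intro x _ y _
    have hx : x ∈ P ⊔ zpowers g := h ▸ mem_top x
    have : P ⊔ zpowers g ≤ (𝐂[ρ y]).comap ρ :=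
      sup_le (fun v hv => mem_cent1.2 (h1 v hv y)) (zpowers_le.2 (mem_cent1.2 (h2 y)))
    have h3 := mem_cent1.1 (this hx)
    rw [← commutatorElement_eq_one_iff_mul_comm, ← map_commutatorElement] at h3
    exact (QuotientGroup.eq_one_iff _).1 h3
  have hW : Nat.card W = Nat.card D * Nat.card φ.range := by
    rw [← PGroup.card_mul_relIndex hDW]
    congr 1
    have : D = π.ker := (QuotientGroup.ker_mk' D).symm
    conv_lhs => rw [this]
    rw [relIndex_ker, map_comap_eq_self_of_surjective (QuotientGroup.mk'_surjective D)]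
  have hr : Nat.card φ.range ≤ K.relIndex P := by
    rw [← index_ker]
    refine Nat.le_of_dvd (Nat.pos_of_ne_zero FiniteIndex.index_ne_zero) (index_dvd_of_le ?_)
    intro u hu
    exact (QuotientGroup.eq_one_iff _).2 (hK _ u.2 hu)
  calc _ ≤ Nat.card W := card_le_of_le hle
    _ ≤ _ := by rw [hW]; exact Nat.mul_le_mul_left _ hr

theorem card_der_le {X P : Subgroup G} (K : Subgroup G) (hPX : P ≤ X) (hN : X ≤ 𝐍(P)) {g : G}
    (hg : g ∈ X) (h : X ≤ P ⊔ zpowers g) (hK : ∀ u ∈ P, u ∈ K → ⁅u, g⁆ ∈ ⁅P, P⁆) :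
    Nat.card ↥(⁅X, X⁆) ≤ Nat.card ↥(⁅P, P⁆) * K.relIndex P := by
  haveI : (P.subgroupOf X).Normal := (normal_subgroupOf_iff_le_normalizer hPX).2 hN
  have hm : (⁅P.subgroupOf X, P.subgroupOf X⁆).map X.subtype = ⁅P, P⁆ := by
    rw [map_commutator, map_subgroupOf_eq_of_le hPX]
  have h1 := card_der_le_top (P.subgroupOf X) (K.subgroupOf X) (⟨g, hg⟩ : X) (by
    apply map_injective X.subtype_injective
    rw [Subgroup.map_sup, map_subgroupOf_eq_of_le hPX, MonoidHom.map_zpowers,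
      ← MonoidHom.range_eq_map, range_subtype]
    exact le_antisymm (sup_le hPX (zpowers_le.2 hg)) h) (by
    intro u hu huK
    have := hK u hu huK
    rw [← hm] at this
    obtain ⟨w, hw, e⟩ := this
    have : w = ⁅u, (⟨g, hg⟩ : X)⁆ := Subtype.ext (by
      simp only [commutatorElement_def, coe_mul, coe_inv]; exact e)
    exact this ▸ hw)
  rw [relIndex_subgroupOf hPX, ← card_map_of_injective X.subtype_injective,
    ← card_map_of_injective (K := ⁅P.subgroupOf X, P.subgroupOf X⁆) X.subtype_injective, hm,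
    map_subtype_commutator] at h1
  exact h1

omit [Finite G] in
theorem exists_not_mem_two {X A B : Subgroup G} (hA : ¬ X ≤ A) (hB : ¬ X ≤ B) :
    ∃ x ∈ X, x ∉ A ∧ x ∉ B := by
  obtain ⟨a, haX, ha⟩ := SetLike.not_le_iff_exists.1 hA
  obtain ⟨b, hbX, hb⟩ := SetLike.not_le_iff_exists.1 hB
  by_cases h1 : a ∈ B
  · by_cases h2 : b ∈ A
    · refine ⟨a * b, X.mul_mem haX hbX, fun h => ha ?_, fun h => hb ?_⟩
      · exact (A.mul_mem_cancel_right h2).1 h
      · exact (B.mul_mem_cancel_left h1).1 h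
    · exact ⟨b, hbX, h2, hb⟩
  · exact ⟨a, haX, ha, h1⟩

theorem exists_mul_of_relIndex_le {X P C : Subgroup G} (hPX : P ≤ X) (hN : X ≤ 𝐍(P))
    (h : C.relIndex X ≤ C.relIndex P) {g : G} (hg : g ∈ X) : ∃ u ∈ P, ∃ c ∈ C, u * c = g := by
  have hn : C ⊓ X ≤ 𝐍(P) := inf_le_right.trans hN
  have h1 := PGroup.card_sup_mul_card_inf hn
  have h2 := PGroup.card_inf_mul_relIndex C X
  have h3 := PGroup.card_inf_mul_relIndex C P
  have e : P ⊓ (C ⊓ X) = C ⊓ P := by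
    rw [← inf_assoc, inf_comm P C, inf_assoc, inf_eq_left.2 hPX]
  rw [e, ← h3] at h1
  have hpos : 0 < Nat.card ↥(C ⊓ P) := Nat.card_pos
  have h4 : Nat.card ↥(P ⊔ C ⊓ X) = C.relIndex P * Nat.card ↥(C ⊓ X) := by
    apply Nat.eq_of_mul_eq_mul_right hpos
    rw [h1]; ring
  have h5 : P ⊔ C ⊓ X = X := by
    refine eq_of_le_of_card_le (sup_le hPX inf_le_right) ?_
    rw [h4, ← h2, mul_comm]
    exact Nat.mul_le_mul_right _ h
  rw [← h5, mem_sup_left_norm hn] at hg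
  obtain ⟨u, hu, c, hc, e⟩ := hg
  exact ⟨u, hu, c, hc.1, e⟩

theorem relIndex_pow [Fact p.Prime] {X : Subgroup G} (hX : IsPGroup p X) (C : Subgroup G) :
    ∃ a, C.relIndex X = p ^ a := by
  obtain ⟨k, hk⟩ := IsPGroup.iff_card.1 hX
  have : C.relIndex X ∣ p ^ k := hk ▸ Subgroup.relIndex_dvd_card C X
  obtain ⟨a, -, ha⟩ := (Nat.dvd_prime_pow Fact.out).1 this
  exact ⟨a, ha⟩

theorem le_pow_of_lt [hp : Fact p.Prime] {X : Subgroup G} (hX : IsPGroup p X) {C : Subgroup G}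
    {m : ℕ} (h : C.relIndex X < p ^ (m + 1)) : C.relIndex X ≤ p ^ m := by
  obtain ⟨a, ha⟩ := relIndex_pow hX C
  rw [ha] at h ⊢
  exact Nat.pow_le_pow_right hp.out.pos
    (Nat.lt_succ_iff.1 ((Nat.pow_lt_pow_iff_right hp.out.one_lt).1 h))

theorem relIndex_mono {X P : Subgroup G} (C : Subgroup G) (h : P ≤ X) :
    C.relIndex P ≤ C.relIndex X :=
  relIndex_le_of_le_right h (FiniteIndex.index_ne_zero)

/-- admissible pairs of proper subgroups -/
def OK (p : ℕ) (X A B : Subgroup G) : Prop :=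
  ¬ X ≤ A ∧ ¬ X ≤ B ∧ (p ≠ 2 ∨ X ⊓ B ≤ A ∨ 4 ≤ B.relIndex X)

/-- the inductive claim -/
def T (p : ℕ) (X : Subgroup G) : Prop :=
  ∀ (n : ℕ) (A B : Subgroup G), OK p X A B →
    (∀ y ∈ X, y ∉ A → y ∉ B → (𝐂[y]).relIndex X < p ^ n) → Nat.card ↥(⁅X, X⁆) ≤ p ^ n.choose 2

theorem step [hp : Fact p.Prime] {X P H : Subgroup G} (hX : IsPGroup p X) (hPX : P ≤ X)
    (hN : X ≤ 𝐍(P)) {g : G} (hg : g ∈ X) (hgen : X ≤ P ⊔ zpowers g) (hT : T p P)
    (hH : ¬ P ≤ H) {m : ℕ} (hb : ∀ y ∈ P, y ∉ H → (𝐂[y]).relIndex X < p ^ (m + 1)) :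
    Nat.card ↥(⁅X, X⁆) ≤ Nat.card ↥(⁅P, P⁆) ∨ (1 ≤ m ∧ Nat.card ↥(⁅P, P⁆) ≤ p ^ m.choose 2) ∨
    (p = 2 ∧ 1 ≤ m ∧ Nat.card ↥(⁅X, X⁆) ≤ Nat.card ↥(⁅P, P⁆) * 2 ∧ ∃ K ≤ P, K.relIndex P = 2 ∧
      ¬ K ≤ H ∧ ∀ y ∈ P, y ∉ H → y ∉ K → (𝐂[y]).relIndex P < p ^ m) := by
  set K := closure {y | y ∈ P ∧ y ∉ H ∧ p ^ m ≤ (𝐂[y]).relIndex P} with hKd
  have hKP : K ≤ P := (closure_le _).2 fun y hy => hy.1
  have hK : ∀ u ∈ P, u ∈ K → ⁅u, g⁆ ∈ ⁅P, P⁆ := by
    intro u _ hu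
    induction hu using closure_induction with
    | mem y hy =>
      obtain ⟨u, hu, c, hc, rfl⟩ := exists_mul_of_relIndex_le hPX hN
        ((le_pow_of_lt hX (hb y hy.1 hy.2.1)).trans hy.2.2) hg
      have e : ⁅y, u * c⁆ = ⁅y, u⁆ := by
        have := mem_cent1.1 hc
        simp only [commutatorElement_def]
        calc y * (u * c) * y⁻¹ * (u * c)⁻¹ = y * u * y⁻¹ * (y * c) * y⁻¹ * c⁻¹ * u⁻¹ := by group
          _ = _ := by rw [← this]; group
      rw [e]; exact commutator_mem_commutator hy.1 hu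
    | one => simp
    | mul u v hu hv ihu ihv =>
      have e : ⁅u * v, g⁆ = u * ⁅v, g⁆ * u⁻¹ * ⁅u, g⁆ := by
        simp only [commutatorElement_def]; group
      rw [e]
      exact mul_mem (conj_mem_of_norm (norm_der (le_norm P) (hKP hu)) (ihv (hKP hv)))
        (ihu (hKP hu))
    | inv u hu ihu =>
      have e : ⁅u⁻¹, g⁆ = u⁻¹ * (⁅u, g⁆)⁻¹ * u := by
        simp only [commutatorElement_def]; group
      rw [e]
      exact conj_mem_of_norm' (norm_der (le_norm P) (hKP hu)) (inv_mem (ihu (hKP hu)))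
  have h1 := card_der_le K hPX hN hg hgen hK
  by_cases hPK : P ≤ K
  · left; rwa [relIndex_eq_one.2 hPK, mul_one] at h1
  right
  have hs : ∀ y ∈ P, y ∉ H → y ∉ K → (𝐂[y]).relIndex P < p ^ m := by
    intro y hy hyH hyK
    by_contra h
    exact hyK (subset_closure ⟨hy, hyH, not_lt.1 h⟩)
  have hm : 1 ≤ m := by
    obtain ⟨y, hy, hyH, hyK⟩ := exists_not_mem_two hH hPK
    have h2 := hs y hy hyH hyK
    have h3 : (𝐂[y]).relIndex P ≠ 0 := FiniteIndex.index_ne_zero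
    rcases m with _ | m
    · simp at h2; exact absurd h2 h3
    · omega
  by_cases hok : p ≠ 2 ∨ P ⊓ K ≤ H ∨ 4 ≤ K.relIndex P
  · exact Or.inl ⟨hm, hT m H K ⟨hH, hPK, hok⟩ hs⟩
  right
  push Not at hok
  obtain ⟨h2, h3, h4⟩ := hok
  have h5 : K.relIndex P = 2 := by
    obtain ⟨a, ha⟩ := relIndex_pow (pgroup_of_le hX hPX) K
    have h6 : K.relIndex P ≠ 1 := fun h => hPK (relIndex_eq_one.1 h)
    rw [ha, h2] at h4 h6 ⊢
    rcases a with _ | _ | a
    · simp at h6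
    · rfl
    · exfalso
      have : 2 ^ 2 ≤ 2 ^ (a + 1 + 1) := Nat.pow_le_pow_right (by norm_num) (by omega)
      omega
  refine ⟨h2, hm, h5 ▸ h1, K, hKP, h5, fun h => h3 (inf_le_right.trans h), hs⟩

/-- `M` is a maximal subgroup of the `p`-group `X` -/
def Mx (p : ℕ) (M X : Subgroup G) : Prop := M ≤ X ∧ X ≤ 𝐍(M) ∧ Nat.card X = p * Nat.card M

theorem Mx.gen [hp : Fact p.Prime] {M X : Subgroup G} (h : Mx p M X) {g : G} (hg : g ∈ X)
    (hgM : g ∉ M) : X ≤ M ⊔ zpowers g := by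
  rcases PGroup.eq_or_eq_of_card_eq_prime_mul hp.out (le_sup_left : M ≤ M ⊔ zpowers g)
    (sup_le h.1 (zpowers_le.2 hg)) h.2.2 with e | e
  · exact absurd (e ▸ mem_sup_right (mem_zpowers g)) hgM
  · exact e.ge

theorem Mx.relIndex [hp : Fact p.Prime] {M X : Subgroup G} (h : Mx p M X) : M.relIndex X = p := by
  have h1 := PGroup.card_mul_relIndex h.1
  rw [h.2.2, mul_comm p] at h1
  exact Nat.eq_of_mul_eq_mul_left Nat.card_pos h1

theorem Mx.lt [hp : Fact p.Prime] {M X : Subgroup G} (h : Mx p M X) :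
    Nat.card M < Nat.card X := by
  rw [h.2.2]
  exact lt_mul_of_one_lt_left Nat.card_pos hp.out.one_lt

theorem Mx.not_le [hp : Fact p.Prime] {M X : Subgroup G} (h : Mx p M X) : ¬ X ≤ M :=
  fun h' => absurd (card_le_of_le h') (_root_.not_le.2 h.lt)

theorem Mx.pow_mem [hp : Fact p.Prime] {M X : Subgroup G} (h : Mx p M X) {g : G} (hg : g ∈ X) :
    g ^ p ∈ M := by
  haveI : (M.subgroupOf X).Normal := (normal_subgroupOf_iff_le_normalizer h.1).2 h.2.1
  have := pow_index_mem (M.subgroupOf X) (⟨g, hg⟩ : X)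
  rw [show (M.subgroupOf X).index = p from h.relIndex] at this
  exact this

theorem exists_mx [Fact p.Prime] {X A : Subgroup G} (hX : IsPGroup p X) (hA : ¬ X ≤ A) :
    ∃ M, Mx p M X ∧ X ⊓ A ≤ M := by
  obtain ⟨M, h1, h2, h3, h4⟩ := PGroup.exists_card_mul_eq_of_lt hX
    (lt_of_le_of_ne (inf_le_left : X ⊓ A ≤ X) fun e => hA (e ▸ inf_le_right))
  exact ⟨M, ⟨h2, h3, h4⟩, h1⟩

theorem Mx.not_le_of_ne [Fact p.Prime] {M N X : Subgroup G} (hM : Mx p M X) (hN : Mx p N X)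
    (h : M ≠ N) : ¬ M ≤ N := by
  intro hle
  refine h (eq_of_le_of_card_le hle ?_)
  have := hM.2.2.symm.trans hN.2.2
  exact (Nat.eq_of_mul_eq_mul_left (Fact.out : p.Prime).pos this).ge

theorem exists_third [hp : Fact p.Prime] {M N X : Subgroup G} (hM : Mx p M X) (hN : Mx p N X)
    (h : M ≠ N) : ∃ P, Mx p P X ∧ ¬ P ≤ M ∧ (∀ x ∈ P, x ∈ M ↔ x ∈ N) ∧
      (p ≠ 2 → ∃ g ∈ X, g ∉ P ∧ g ∉ M ∧ g ∉ N) := by
  obtain ⟨a, haM, haN⟩ := SetLike.not_le_iff_exists.1 (hM.not_le_of_ne hN h)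
  obtain ⟨b, hbN, hbM⟩ := SetLike.not_le_iff_exists.1 (hN.not_le_of_ne hM h.symm)
  have hcX : a * b ∈ X := X.mul_mem (hM.1 haM) (hN.1 hbN)
  have hcM : a * b ∉ M := fun h' => hbM ((M.mul_mem_cancel_left haM).1 h')
  have hcN : a * b ∉ N := fun h' => haN ((N.mul_mem_cancel_right hbN).1 h')
  have hDn : X ≤ 𝐍(M ⊓ N) := norm_inf hM.2.1 hN.2.1
  have hcp : (a * b) ^ p ∈ M ⊓ N := ⟨hM.pow_mem hcX, hN.pow_mem hcX⟩
  have hPX : M ⊓ N ⊔ zpowers (a * b) ≤ X := sup_le (inf_le_left.trans hM.1) (zpowers_le.2 hcX)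
  have hD : Nat.card M = p * Nat.card ↥(M ⊓ N) := by
    have h1 := PGroup.card_inf_mul_relIndex N M
    have h2 := PGroup.relIndex_sup_of_le_normalizer (hM.1.trans hN.2.1)
    have h3 : N ⊔ M = X := le_antisymm (sup_le hN.1 hM.1)
      ((hN.gen (hM.1 haM) haN).trans (sup_le_sup_left (zpowers_le.2 haM) _))
    rw [h3, hN.relIndex] at h2
    rw [← h1, ← h2, inf_comm, mul_comm]
  have hP := PGroup.card_sup_zpowers (hDn hcX) (fun h' => hcM h'.1) hcp
  have hc : Nat.card X = p * Nat.card ↥(M ⊓ N ⊔ zpowers (a * b)) := by rw [hP, ← hD, hM.2.2]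
  have hiff : ∀ x ∈ M ⊓ N ⊔ zpowers (a * b), x ∈ M ↔ x ∈ N := by
    intro x hx
    obtain ⟨d, hd, k, rfl⟩ := (PGroup.mem_sup_zpowers_iff (hDn hcX)).1 hx
    rw [M.mul_mem_cancel_left hd.1, N.mul_mem_cancel_left hd.2,
      PGroup.zpow_mem_iff_dvd hcM hcp.1, PGroup.zpow_mem_iff_dvd hcN hcp.2]
  refine ⟨M ⊓ N ⊔ zpowers (a * b), ⟨hPX, ?_, hc⟩,
    fun h' => hcM (h' (mem_sup_right (mem_zpowers _))), hiff, fun h2 => ?_⟩
  · refine norm_of_comm_le_of_le (K := X) ?_ hPX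
    refine le_trans ?_ le_sup_left
    have key : ∀ {M : Subgroup G}, Mx p M X → ⁅X, X⁆ ≤ M := by
      intro M hM
      haveI : (M.subgroupOf X).Normal := (normal_subgroupOf_iff_le_normalizer hM.1).2 hM.2.1
      rw [← map_subtype_commutator, ← map_subgroupOf_eq_of_le hM.1]
      refine map_mono ?_
      haveI : Fact (Nat.card (X ⧸ M.subgroupOf X)).Prime :=
        ⟨by rw [show Nat.card (X ⧸ M.subgroupOf X) = p from hM.relIndex]; exact hp.out⟩
      haveI := isCyclic_of_prime_card (α := X ⧸ M.subgroupOf X) rfl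
      rw [_root_.commutator_def, commutator_le]
      intro x _ y _
      rw [← QuotientGroup.eq_one_iff, ← QuotientGroup.mk'_apply, map_commutatorElement,
        commutatorElement_eq_one_iff_mul_comm]
      exact IsCyclic.commGroup.mul_comm _ _
    exact le_inf (key hM) (key hN)
  · refine ⟨a * b * b, X.mul_mem hcX (hN.1 hbN), fun h' => ?_, fun h' => ?_, fun h' => ?_⟩
    · have := ((M ⊓ N ⊔ zpowers (a * b)).mul_mem_cancel_left
        (mem_sup_right (mem_zpowers (a * b)))).1 h'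
      exact hbM ((hiff b this).2 hbN)
    · rw [mul_assoc, M.mul_mem_cancel_left haM, ← sq, ← zpow_natCast,
        PGroup.zpow_mem_iff_dvd hbM (hM.pow_mem (hN.1 hbN))] at h'
      have : p ∣ 2 := by exact_mod_cast h'
      exact h2 ((Nat.prime_dvd_prime_iff_eq hp.out Nat.prime_two).1 this)
    · exact hcN ((N.mul_mem_cancel_right hbN).1 h')

theorem choose_succ (m : ℕ) : (m + 1).choose 2 = m.choose 2 + m := by
  rw [Nat.choose_succ_succ, Nat.choose_one_right, add_comm]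

theorem br_step [hp : Fact p.Prime] {X P : Subgroup G} (hX : IsPGroup p X) (hP : Mx p P X)
    {g : G} (hg : g ∈ X) (hgP : g ∉ P) {m : ℕ} (hb : (𝐂[g]).relIndex X < p ^ (m + 1)) :
    Nat.card ↥(⁅X, X⁆) ≤ Nat.card ↥(⁅P, P⁆) * p ^ m := by
  refine (card_der_le 𝐂[g] hP.1 hP.2.1 hg (hP.gen hg hgP) ?_).trans
    (Nat.mul_le_mul_left _ ((relIndex_mono _ hP.1).trans (le_pow_of_lt hX hb)))
  intro u _ hu
  rw [commutatorElement_eq_one_iff_mul_comm.2 (mem_cent1.1 hu)]; exact one_mem _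

theorem core [hp : Fact p.Prime] {X P H : Subgroup G} (hX : IsPGroup p X) (hP : Mx p P X)
    (IH : ∀ Y : Subgroup G, Y ≤ P → T p Y) (hH : ¬ P ≤ H) {m : ℕ}
    (hb : ∀ y ∈ P, y ∉ H → (𝐂[y]).relIndex X < p ^ (m + 1))
    {g : G} (hg : g ∈ X) (hgP : g ∉ P) (hgb : (𝐂[g]).relIndex X < p ^ (m + 1)) :
    Nat.card ↥(⁅X, X⁆) ≤ p ^ (m + 1).choose 2 := by
  have hPp := pgroup_of_le hX hP.1
  obtain ⟨M, hM, hHM⟩ := exists_mx hPp hH
  have hb' : ∀ y ∈ P, y ∉ M → (𝐂[y]).relIndex X < p ^ (m + 1) :=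
    fun y hy h => hb y hy fun h' => h (hHM ⟨hy, h'⟩)
  rcases step hX hP.1 hP.2.1 hg (hP.gen hg hgP) (IH P le_rfl) hM.not_le hb' with
    h | ⟨-, h⟩ | ⟨h2, hm, h, K, hKP, hK, hKM, hs⟩
  · refine h.trans (IH P le_rfl (m + 1) M M ⟨hM.not_le, hM.not_le, Or.inr (Or.inl inf_le_right)⟩
      fun y hy h1 _ => (relIndex_mono _ hP.1).trans_lt (hb' y hy h1))
  · rw [choose_succ, pow_add]
    exact (br_step hX hP hg hgP hgb).trans (Nat.mul_le_mul_right _ h)
  subst h2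
  have hKc : Nat.card P = 2 * Nat.card K := by
    rw [← PGroup.card_mul_relIndex hKP, hK, mul_comm]
  have hKx : Mx 2 K P := ⟨hKP, PGroup.le_normalizer_of_card_eq_mul hPp hKP hKc, hKc⟩
  obtain ⟨L, hL, hLM, hiff, -⟩ := exists_third hM hKx (fun e => hKM e.ge)
  obtain ⟨y, hyK, hyM⟩ := SetLike.not_le_iff_exists.1 hKM
  have hyL : y ∉ L := fun h' => hyM ((hiff y h').2 hyK)
  obtain ⟨k, rfl⟩ : ∃ k, m = k + 1 := ⟨m - 1, by omega⟩
  have hbL : ∀ x ∈ L, x ∉ M → (𝐂[x]).relIndex P < 2 ^ (k + 1) :=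
    fun x hx h' => hs x (hL.1 hx) h' fun h'' => h' ((hiff x hx).2 h'')
  have hLb : Nat.card ↥(⁅L, L⁆) ≤ 2 ^ (k + 1).choose 2 :=
    IH L hL.1 (k + 1) M M ⟨hLM, hLM, Or.inr (Or.inl inf_le_right)⟩
      fun x hx h1 _ => (relIndex_mono _ hL.1).trans_lt (hbL x hx h1)
  have hy := br_step hPp hL (hKP hyK) hyL
    ((relIndex_mono _ hP.1).trans_lt (hb' y (hKP hyK) hyM))
  refine h.trans ?_
  rcases step hPp hL.1 hL.2.1 (hKP hyK) (hL.gen (hKP hyK) hyL) (IH L hL.1) hLM hbL with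
    h1 | ⟨hk, h1⟩ | ⟨-, hk, h1, -⟩
  · calc _ ≤ 2 ^ (k + 1).choose 2 * 2 := Nat.mul_le_mul_right _ (h1.trans hLb)
      _ ≤ _ := by
        rw [← pow_succ, choose_succ (k + 1)]
        exact Nat.pow_le_pow_right (by norm_num) (by omega)
  · calc _ ≤ 2 ^ k.choose 2 * 2 ^ (k + 1) * 2 :=
          Nat.mul_le_mul_right _ (hy.trans (Nat.mul_le_mul_right _ h1))
      _ ≤ _ := by
        rw [← pow_add, ← pow_succ, choose_succ (k + 1), choose_succ k]
        exact Nat.pow_le_pow_right (by norm_num) (by omega)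
  · calc _ ≤ 2 ^ (k + 1).choose 2 * 2 * 2 :=
          Nat.mul_le_mul_right _ (h1.trans (Nat.mul_le_mul_right _ hLb))
      _ ≤ _ := by
        rw [← pow_succ, ← pow_succ, choose_succ (k + 1)]
        exact Nat.pow_le_pow_right (by norm_num) (by omega)

theorem main [hp : Fact p.Prime] (X : Subgroup G) (hX : IsPGroup p X) : T p X := by
  induction' hc : Nat.card X using Nat.strong_induction_on with c IH generalizing X
  intro n A B ⟨hA, hB, hok⟩ hb
  obtain ⟨y, hy, hyA, hyB⟩ := exists_not_mem_two hA hB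
  obtain ⟨m, rfl⟩ : ∃ m, n = m + 1 := by
    have h2 := hb y hy hyA hyB
    have h3 : (𝐂[y]).relIndex X ≠ 0 := FiniteIndex.index_ne_zero
    rcases n with _ | n
    · simp at h2; exact absurd h2 h3
    · exact ⟨n, rfl⟩
  have IH' : ∀ P, Mx p P X → ∀ Y : Subgroup G, Y ≤ P → T p Y := fun P hP Y hY =>
    IH _ (hc ▸ (card_le_of_le hY).trans_lt hP.lt) Y (pgroup_of_le hX (hY.trans hP.1)) rfl
  obtain ⟨M, hM, hAM⟩ := exists_mx hX hA
  by_cases hBM : X ⊓ B ≤ M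
  · obtain ⟨x, hx, hxM⟩ := SetLike.not_le_iff_exists.1 hM.not_le
    have hb' : ∀ y ∈ X, y ∉ M → (𝐂[y]).relIndex X < p ^ (m + 1) := fun y hy h =>
      hb y hy (fun h' => h (hAM ⟨hy, h'⟩)) (fun h' => h (hBM ⟨hy, h'⟩))
    by_cases hxX : X ≤ zpowers x
    · have : ⁅X, X⁆ = ⊥ := abelian_iff_der.1 (abelian_of_le inferInstance hxX)
      rw [this, card_bot]; exact Nat.one_le_pow _ _ hp.out.pos
    obtain ⟨N, hN, hxN⟩ := exists_mx hX hxX
    have hxN' : x ∈ N := hxN ⟨hx, mem_zpowers x⟩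
    obtain ⟨P, hP, hPM, hiff, -⟩ := exists_third hM hN fun e => hxM (e ▸ hxN')
    exact core hX hP (IH' P hP) hPM (fun y hy h => hb' y (hP.1 hy) h) hx
      (fun h => hxM ((hiff x h).2 hxN')) (hb' x hx hxM)
  obtain ⟨N, hN, hBN⟩ := exists_mx hX hB
  have hne : M ≠ N := fun e => hBM (e ▸ hBN)
  obtain ⟨P, hP, hPM, hiff, hg⟩ := exists_third hM hN hne
  have hb' : ∀ y ∈ P, y ∉ M → (𝐂[y]).relIndex X < p ^ (m + 1) := fun y hy h =>
    hb y (hP.1 hy) (fun h' => h (hAM ⟨hP.1 hy, h'⟩))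
      (fun h' => h ((hiff y hy).2 (hBN ⟨hP.1 hy, h'⟩)))
  by_cases h2 : p = 2
  · rcases hok with h | h | h
    · exact absurd h2 h
    · exact absurd (fun y hy => hAM ⟨hy.1, h hy⟩) hBM
    have hNB : ¬ N ≤ B := by
      intro h'
      have := relIndex_le_of_le_left (L := X) h' FiniteIndex.index_ne_zero
      rw [hN.relIndex] at this
      omega
    obtain ⟨g, hgN, hgM, hgB⟩ := exists_not_mem_two (hN.not_le_of_ne hM hne.symm) hNB
    exact core hX hP (IH' P hP) hPM hb' (hN.1 hgN) (fun h => hgM ((hiff g h).2 hgN))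
      (hb g (hN.1 hgN) (fun h' => hgM (hAM ⟨hN.1 hgN, h'⟩)) hgB)
  · obtain ⟨g, hgX, hgP, hgM, hgN⟩ := hg h2
    exact core hX hP (IH' P hP) hPM hb' hgX hgP
      (hb g hgX (fun h' => hgM (hAM ⟨hgX, h'⟩)) (fun h' => hgN (hBN ⟨hgX, h'⟩)))

theorem card_commutator_le [hp : Fact p.Prime] (hG : IsPGroup p G) (b : ℕ)
    (hb : ∀ x : G, (𝐂[x]).index ≤ p ^ b) :
    Nat.card (_root_.commutator G) ≤ p ^ (b * (b + 1) / 2) := by
  by_cases h : (⊤ : Subgroup G) ≤ ⊥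
  · rw [eq_bot_iff.2 (le_top.trans h : _root_.commutator G ≤ ⊥), card_bot]
    exact Nat.one_le_pow _ _ hp.out.pos
  have := main (⊤ : Subgroup G) (hG.to_subgroup ⊤) (b + 1) ⊥ ⊥
    ⟨h, h, Or.inr (Or.inl inf_le_right)⟩ (fun y _ _ _ => by
      rw [relIndex_top_right]
      exact (hb y).trans_lt (Nat.pow_lt_pow_right hp.out.one_lt (Nat.lt_succ_self b)))
  rwa [Nat.choose_two_right, Nat.add_sub_cancel, mul_comm] at this

end Cfsg.Lib.FGS.Br
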