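import Cfsg.Agent.Lib.FGS.FrobCount
import Cfsg.Agent.Lib.FGS.ClassFour
import Cfsg.Agent.Lib.Char.Burnside
import Cfsg.Agent.Lib.Spec.GK
import Cfsg.Agent.Lib.PGroup.RankOne

/-!
# Numbers of elements of given order
-/

set_option autoImplicit false

namespace Cfsg.Lib.FGS

open Subgroup Cfsg.Lib.BG Cfsg.Lib.Spec

/-- The number of elements of order `m`. -/
noncomputable def ns (G : Type*) [Group G] (m : ℕ) : ℕ := Nat.card {g : G // orderOf g = m}

variable {G : Type*} [Group G] [Finite G] {m k p q : ℕ}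

omit [Finite G] in
theorem ns_one : ns G 1 = 1 := by
  simp [ns]

theorem ns_eq_zero : ns G m = 0 ↔ m ∉ sp G := by
  rw [ns, Nat.card_eq_zero, or_iff_left (not_infinite_iff_finite.2 inferInstance), isEmpty_subtype,
    mem_sp, not_exists]

theorem ns_eq_ncard : ns G m = {g : G | orderOf g = m}.ncard := rfl

theorem totient_dvd_ns (m : ℕ) : m.totient ∣ ns G m := by
  classical
  refine dvd_ncard_of_classes (S := {g : G | orderOf g = m})
    (fun x => {y | y ∈ zpowers x ∧ orderOf y = orderOf x}) (fun x _ => ⟨mem_zpowers x, rfl⟩)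
    (fun x hx y hy => hy.2.trans hx) (fun x _ y hy => ?_) fun x hx => ?_
  · rw [hy.2, eq_of_le_of_card_ge (zpowers_le.2 hy.1) (by
      rw [Nat.card_zpowers, Nat.card_zpowers, hy.2])]
  · have := Fintype.ofFinite (zpowers x)
    have h1 := IsCyclic.card_orderOf_eq_totient (α := zpowers x) (d := m) (by
      rw [← Nat.card_eq_fintype_card, Nat.card_zpowers, hx])
    rw [← h1, ← Set.ncard_coe_finset, ← Set.ncard_image_of_injective _ Subtype.val_injective]
    refine dvd_of_eq (congrArg _ (Set.ext fun y => ⟨?_, fun hy => ⟨⟨y, hy.1⟩, ?_, rfl⟩⟩))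
    · rintro ⟨z, hz, rfl⟩
      exact ⟨z.2, by simpa [show orderOf x = m from hx] using hz⟩
    · simpa [← show orderOf x = m from hx] using hy.2

theorem sum_ns (hm : m ≠ 0) : ∑ d ∈ m.divisors, ns G d = Nat.card {g : G // g ^ m = 1} := by
  classical
  have := Fintype.ofFinite G
  rw [Nat.card_eq_fintype_card, Fintype.card_subtype]
  refine Eq.trans ?_ (sum_card_orderOf_eq_card_pow_eq_one hm)
  exact Finset.sum_congr rfl fun d _ => by rw [ns, Nat.card_eq_fintype_card, Fintype.card_subtype]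

theorem dvd_sum_ns (hm : m ∣ Nat.card G) : m ∣ ∑ d ∈ m.divisors, ns G d := by
  rw [sum_ns (ne_zero_of_dvd_ne_zero Nat.card_pos.ne' hm)]
  exact dvd_card_pow_eq_one hm

theorem sum_ns_card (hm : m ≠ 0) (h : ∀ g : G, g ^ m = 1) : ∑ d ∈ m.divisors, ns G d = Nat.card G := by
  rw [sum_ns hm]
  exact Nat.card_congr (Equiv.subtypeUnivEquiv h)

theorem sum_divisors_prime_mul (hp : p.Prime) (hk : ¬ p ∣ k) (f : ℕ → ℕ) :
    ∑ d ∈ (p * k).divisors, f d = ∑ d ∈ k.divisors, (f d + f (p * d)) := by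
  have k0 : k ≠ 0 := by rintro rfl; exact hk (dvd_zero p)
  have e : (p * k).divisors = k.divisors ∪ k.divisors.image (p * ·) := by
    ext d
    simp only [Nat.mem_divisors, Finset.mem_union, Finset.mem_image]
    refine ⟨fun h => ?_, ?_⟩
    · by_cases hd : p ∣ d
      · obtain ⟨e, rfl⟩ := hd
        exact .inr ⟨e, ⟨Nat.dvd_of_mul_dvd_mul_left hp.pos h.1, k0⟩, rfl⟩
      · exact .inl ⟨((hp.coprime_iff_not_dvd.2 hd).symm).dvd_of_dvd_mul_left h.1, k0⟩
    · rintro (h | ⟨e, h, rfl⟩)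
      · exact ⟨h.1.mul_left p, mul_ne_zero hp.ne_zero k0⟩
      · exact ⟨mul_dvd_mul_left p h.1, mul_ne_zero hp.ne_zero k0⟩
  rw [e, Finset.sum_union, Finset.sum_image fun a _ b _ h => Nat.eq_of_mul_eq_mul_left hp.pos h,
    Finset.sum_add_distrib]
  refine Finset.disjoint_left.2 fun d h1 h2 => ?_
  obtain ⟨e, -, rfl⟩ := Finset.mem_image.1 h2
  exact hk ((dvd_mul_right p e).trans (Nat.dvd_of_mem_divisors h1))

theorem dvd_ns_add (hp : p.Prime) (hk : ¬ p ∣ k) (h : p * k ∣ Nat.card G) :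
    p ∣ ns G k + ns G (p * k) := by
  induction k using Nat.strong_induction_on with
  | _ k ih =>
  have k0 : k ≠ 0 := by rintro rfl; exact hk (dvd_zero p)
  have h1 := (dvd_mul_right p k).trans (dvd_sum_ns h)
  rw [sum_divisors_prime_mul hp hk, ← Nat.cons_self_properDivisors k0, Finset.sum_cons] at h1
  exact (Nat.dvd_add_left (Finset.dvd_sum fun d hd => ih d (Nat.mem_properDivisors.1 hd).2
    (fun e => hk (e.trans (Nat.mem_properDivisors.1 hd).1))
    ((mul_dvd_mul_left p (Nat.mem_properDivisors.1 hd).1).trans h))).1 h1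

theorem dvd_one_add_ns (hp : p.Prime) (h : p ∣ Nat.card G) : p ∣ 1 + ns G p := by
  simpa [ns_one] using dvd_ns_add (k := 1) hp (by simpa using hp.ne_one) (by simpa using h)

theorem dvd_ns_of_sq_dvd (hp : p.Prime) (h : p ^ 2 ∣ m) : p ∣ ns G m := by
  refine dvd_trans ?_ ((Nat.totient_dvd_of_dvd h).trans (totient_dvd_ns m))
  rw [Nat.totient_prime_pow hp two_pos]; simp

theorem even_ns (h : 2 < m) : Even (ns G m) := (Nat.totient_even h).trans_dvd (totient_dvd_ns m)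

theorem four_dvd_ns (hp : p.Prime) (h2 : p ≠ 2) (hk : 2 < k) (hc : p.Coprime k) (h : p * k ∣ m) :
    4 ∣ ns G m := by
  refine dvd_trans ?_ ((Nat.totient_dvd_of_dvd h).trans (totient_dvd_ns m))
  rw [Nat.totient_mul hc]
  exact mul_dvd_mul (Nat.totient_even (lt_of_le_of_ne hp.two_le h2.symm)).two_dvd
    (Nat.totient_even hk).two_dvd

theorem ns_four (h : 4 ∣ Nat.card G) : 4 ∣ 1 + ns G 2 + ns G 4 := by
  have := dvd_sum_ns h
  rwa [show Nat.divisors 4 = {1, 2, 4} by decide, Finset.sum_insert (by decide),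
    Finset.sum_pair (by decide), ns_one, ← add_assoc] at this

/-- The set of numbers of elements of given order. -/
abbrev nse (G : Type*) [Group G] : Set ℕ :=
  (fun m : ℕ => Nat.card {g : G // orderOf g = m}) '' Set.range (orderOf : G → ℕ)

theorem ns_mem (m : ℕ) : ns G m = 0 ∨ ns G m ∈ nse G :=
  (em (m ∈ sp G)).symm.imp ns_eq_zero.2 fun h => ⟨m, h, rfl⟩

theorem exists_two_vals (h : (nse G).ncard = 3) :
    ∃ a b, a ≠ b ∧ a ≠ 1 ∧ b ≠ 1 ∧ nse G = {1, a, b} := by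
  obtain ⟨x, y, z, h1, h2, h3, e⟩ := Set.ncard_eq_three.1 h
  have : 1 ∈ nse G := ⟨1, one_mem_sp, ns_one⟩
  rw [e] at this ⊢
  rcases this with rfl | rfl | rfl
  · exact ⟨y, z, h3, h1.symm, h2.symm, rfl⟩
  · exact ⟨x, z, h2, h1, h3.symm, Set.insert_comm _ _ _⟩
  · exact ⟨x, y, h1, h2, h3, by ext; simp; tauto⟩

theorem np_one {r x : ℕ} (hr : 2 < r) (h : r ∣ 1 + x) : ¬ r ∣ x ∧ ¬ r ∣ x + x ∧ x ≠ 0 :=
  ⟨fun e => by have := Nat.le_of_dvd one_pos ((Nat.dvd_add_left e).1 h); omega,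
    fun e => by
      have := Nat.le_of_dvd two_pos ((Nat.dvd_add_left e).1 (by
        rw [show 2 + (x + x) = 2 * (1 + x) by ring]; exact h.mul_left 2)); omega,
    by rintro rfl; have := Nat.le_of_dvd one_pos h; omega⟩

theorem np_two {r x y : ℕ} (hr : 2 < r) (h : r ∣ 1 + x) (h' : r ∣ x + y) :
    ¬ r ∣ y ∧ ¬ r ∣ y + y ∧ y ≠ 0 ∧ y ≠ x :=
  ⟨fun e => (np_one hr h).1 ((Nat.dvd_add_left e).1 h'), fun e => (np_one hr h).2.1
    ((Nat.dvd_add_left e).1 (by rw [show x + x + (y + y) = 2 * (x + y) by ring]; exact h'.mul_left 2)),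
    by rintro rfl; exact (np_one hr h).1 h', by rintro rfl; exact (np_one hr h).2.1 h'⟩

theorem isSolvable_of_nse {a b : ℕ} (h : nse G ⊆ {1, a, b}) : Group.IsSolvable G := by
  by_cases h4 : 4 ∣ Nat.card G
  swap
  · exact isSolvable_of_not_four_dvd G fun x e => h4 (e.trans (index_dvd_card _))
  by_contra hn
  obtain ⟨p, hp, pG, p2⟩ : ∃ p : ℕ, p.Prime ∧ p ∣ Nat.card G ∧ p ≠ 2 := by
    by_contra! e
    exact hn (Char.isSolvable_of_forall_prime_dvd G 2 2 fun r hr h => .inl (e r hr h))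
  obtain ⟨q, hq, qG, q2, qp⟩ : ∃ q : ℕ, q.Prime ∧ q ∣ Nat.card G ∧ q ≠ 2 ∧ q ≠ p := by
    by_contra! e
    exact hn (Char.isSolvable_of_forall_prime_dvd G 2 p fun r hr h => (em _).imp_right (e r hr h))
  have val : ∀ k, 2 < k → ns G k = 0 ∨ ns G k = a ∨ ns G k = b := fun k hk =>
    (ns_mem k).imp_right fun e => (h e).resolve_left fun e => by simpa [e] using even_ns (G := G) hk
  have c8 := ns_four h4
  have c9 := dvd_one_add_ns Nat.prime_two ((by decide : 2 ∣ 4).trans h4)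
  have c10 := (ns_mem 2).imp_right (@h _)
  simp only [Set.mem_insert_iff, Set.mem_singleton_iff] at c10
  have key : ∀ {p q : ℕ}, p.Prime → q.Prime → p ≠ 2 → q ≠ 2 → q ≠ p → p ∣ Nat.card G → q ∣ Nat.card G →
      (p ∣ 1 + ns G p ∧ p ∣ ns G q + ns G (p * q) ∧ p ∣ ns G 4 + ns G (p * 4) ∧
        p ∣ ns G (q * 4) + ns G (p * (q * 4))) ∧ 2 < p ∧ 2 < p * q ∧ 2 < p * (q * 4) ∧
        4 ∣ ns G (p * q) ∧ 4 ∣ ns G (p * 4) ∧ 4 ∣ ns G (p * (q * 4)) := by
    intro p q hp hq p2 q2 qp pG qG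
    have p3 := lt_of_le_of_ne hp.two_le p2.symm
    have q3 := lt_of_le_of_ne hq.two_le q2.symm
    have pq : p.Coprime q := (Nat.coprime_primes hp hq).2 qp.symm
    have p4 : p.Coprime 4 := ((Nat.coprime_primes hp Nat.prime_two).2 p2).pow_right 2
    have q4 : q.Coprime 4 := ((Nat.coprime_primes hq Nat.prime_two).2 q2).pow_right 2
    exact ⟨⟨dvd_one_add_ns hp pG,
      dvd_ns_add hp (hp.coprime_iff_not_dvd.1 pq) (pq.mul_dvd_of_dvd_of_dvd pG qG),
      dvd_ns_add hp (hp.coprime_iff_not_dvd.1 p4) (p4.mul_dvd_of_dvd_of_dvd pG h4),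
      dvd_ns_add hp (hp.coprime_iff_not_dvd.1 (pq.mul_right p4))
        ((pq.mul_right p4).mul_dvd_of_dvd_of_dvd pG (q4.mul_dvd_of_dvd_of_dvd qG h4))⟩, p3,
      by nlinarith, by nlinarith, four_dvd_ns hp p2 q3 pq dvd_rfl,
      four_dvd_ns hp p2 (by decide) p4 dvd_rfl,
      four_dvd_ns hp p2 q3 pq (mul_assoc p q 4 ▸ dvd_mul_right _ _)⟩
  obtain ⟨⟨a1, a2, a3, a4⟩, p3, l1, l2, b1, b2, b3⟩ := key hp hq p2 q2 qp pG qG
  obtain ⟨⟨a5, a6, a7, -⟩, q3, -, -, -, b4, -⟩ := key hq hp q2 p2 qp.symm qG pG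
  rw [mul_comm q p] at a6
  by_cases h2 : ns G 2 = 1
  · obtain ⟨n, v1, v2⟩ : ∃ n, (∀ k, 2 < k → ns G k = 0 ∨ ns G k = ns G 4 ∨ ns G k = n) ∧
        ∀ k, 2 < k → 4 ∣ ns G k → ns G k = 0 ∨ ns G k = n := by
      rcases val 4 (by decide) with e | e | e
      · omega
      · exact ⟨b, e ▸ val, fun k hk h => by have := val k hk; omega⟩
      · exact ⟨a, fun k hk => by have := val k hk; omega, fun k hk h => by have := val k hk; omega⟩
    have one : ∀ {p q : ℕ}, 2 < p → 2 < q → 2 < p * q → p ∣ 1 + ns G p → p ∣ ns G q + ns G (p * q) →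
        p ∣ ns G 4 + ns G (p * 4) → 4 ∣ ns G (p * q) → 4 ∣ ns G (p * 4) → q ∣ 1 + ns G q →
        ns G p = ns G 4 → ns G q = ns G 4 ∧ ¬ p ∣ n ∧ ¬ p ∣ n + n := by
      intro p q p3 q3 l1 a1 a2 a3 b1 b2 a5 e
      have h1 := np_two p3 a1 (e ▸ a3)
      rw [(v2 _ (by omega) b2).resolve_left h1.2.2.1] at h1
      refine ⟨((v1 q q3).resolve_left (np_one q3 a5).2.2).resolve_right fun e => ?_, h1.1, h1.2.1⟩
      rcases v2 _ l1 b1 with e' | e' <;> rw [e, e'] at a2
      exacts [h1.1 a2, h1.2.1 a2]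
    rcases (v1 p p3).resolve_left (np_one p3 a1).2.2 with e | e
    · obtain ⟨e', h1, h3⟩ := one p3 q3 l1 a1 a2 a3 b1 b2 a5 e
      rw [(v2 _ (by omega) b4).resolve_left (np_two q3 a5 (e' ▸ a7)).2.2.1] at a4
      rcases v2 _ l2 b3 with e' | e' <;> rw [e'] at a4
      exacts [h1 a4, h3 a4]
    rcases (v1 q q3).resolve_left (np_one q3 a5).2.2 with e' | e'
    · have := (one q3 p3 (mul_comm p q ▸ l1) a5 (mul_comm p q ▸ a6) a7 (mul_comm p q ▸ b1) b4 a1 e').1
      have h1 := np_two p3 a1 (this ▸ a3)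
      exact h1.2.2.2 (((v2 _ (by omega) b2).resolve_left h1.2.2.1).trans e.symm)
    · have h1 := np_two p3 a1 (y := ns G (p * q)) (by rwa [e, ← e'])
      exact h1.2.2.2 (((v2 _ l1 b1).resolve_left h1.2.2.1).trans e.symm)
  · obtain ⟨n, v⟩ : ∃ n, ∀ k, 2 < k → ns G k = 0 ∨ ns G k = n := by
      have ev : ∀ k, 2 < k → ns G k % 2 = 0 := fun k hk => Nat.even_iff.1 (even_ns hk)
      rcases c10 with e | e | e | e
      · omega
      · omega
      · exact ⟨b, fun k hk => by have := val k hk; have := ev k hk; omega⟩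
      · exact ⟨a, fun k hk => by have := val k hk; have := ev k hk; omega⟩
    have e := (v p p3).resolve_left (np_one p3 a1).2.2
    have h1 := np_two p3 a1 (y := ns G (p * q)) (by
      rwa [e, ← (v q q3).resolve_left (np_one q3 a5).2.2])
    exact h1.2.2.2 (((v _ l1).resolve_left h1.2.2.1).trans e.symm)

end Cfsg.Lib.FGS
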